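import Mathlib
import Cfsg.Agent.H644.KGV.Goals
import Cfsg.Agent.H540.ClassNum
import Cfsg.Agent.S0012
import Cfsg.Agent.S0029

/-!
# The k(GV) theorem for groups with a normal Sylow `p`-subgroup

`class_le` : if `D` is a normal Sylow `p`-subgroup of `X` with `C_X(D) ≤ D` and `K ≤ Φ(D)` is normal
in `X`, then `X / K` has at most `|D : K|` conjugacy classes.
-/

set_option autoImplicit false

namespace Cfsg.Agent.H716.KGV

open Subgroup Cfsg.Agent.H644.KGV
open scoped commutatorElement

universe u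

theorem conjClasses_congr {A B : Type*} [Group A] [Group B] (e : A ≃* B) :
    Nat.card (ConjClasses A) = Nat.card (ConjClasses B) := by
  refine Nat.card_congr (Equiv.ofBijective (ConjClasses.map (e : A →* B))
    ⟨?_, ConjClasses.map_surjective e.surjective⟩)
  intro x y h
  obtain ⟨a, rfl⟩ := ConjClasses.mk_surjective x
  obtain ⟨b, rfl⟩ := ConjClasses.mk_surjective y
  have h1 : IsConj (e a) (e b) := ConjClasses.mk_eq_mk_iff_isConj.1 h
  obtain ⟨c, hc⟩ := isConj_iff.1 h1
  refine ConjClasses.mk_eq_mk_iff_isConj.2 (isConj_iff.2 ⟨e.symm c, e.injective ?_⟩)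
  rw [map_mul, map_mul, map_inv, e.apply_symm_apply]
  exact hc

theorem conjClasses_le_card {A : Type*} [Group A] [Finite A] :
    Nat.card (ConjClasses A) ≤ Nat.card A :=
  Nat.card_le_card_of_surjective _ ConjClasses.mk_surjective

/-- The kernel of the action on the Frattini quotient. -/
theorem mem_of_frattini {X : Type u} [Group X] [Finite X] {p : ℕ} [hp : Fact p.Prime]
    (D : Subgroup X) [D.Normal] (hD : IsPGroup p D) (hidx : ¬ p ∣ D.index)
    (hC : centralizer (D : Set X) ≤ D) {x : X}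
    (hx : ∀ d ∈ D, x * d * x⁻¹ * d⁻¹ ∈ (frattini D).map D.subtype) : x ∈ D := by
  have hFn : ((frattini D).map D.subtype).Normal := inferInstance
  -- the set of these elements is a normal subgroup
  let C : Subgroup X :=
    { carrier := {x | ∀ d ∈ D, x * d * x⁻¹ * d⁻¹ ∈ (frattini D).map D.subtype}
      one_mem' := by intro d _; simp
      mul_mem' := by
        intro a b ha hb d hd
        have h1 := ha (b * d * b⁻¹) (Subgroup.Normal.conj_mem ‹_› d hd b)
        have h2 := hb d hd
        have e : a * b * d * (a * b)⁻¹ * d⁻¹ =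
            (a * (b * d * b⁻¹) * a⁻¹ * (b * d * b⁻¹)⁻¹) * (b * d * b⁻¹ * d⁻¹) := by group
        rw [e]
        exact mul_mem h1 h2
      inv_mem' := by
        intro a ha d hd
        have h1 := ha (a⁻¹ * d * a) (by
          have := Subgroup.Normal.conj_mem ‹D.Normal› d hd a⁻¹
          rwa [inv_inv] at this)
        have e : a⁻¹ * d * a⁻¹⁻¹ * d⁻¹ =
            (a * (a⁻¹ * d * a) * a⁻¹ * (a⁻¹ * d * a)⁻¹)⁻¹ := by group
        rw [e]
        exact inv_mem h1 }
  have hmemC : ∀ y : X, y ∈ C ↔ ∀ d ∈ D, y * d * y⁻¹ * d⁻¹ ∈ (frattini D).map D.subtype :=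
    fun y => Iff.rfl
  have hDn : ∀ y : X, y ∈ normalizer (D : Set X) := fun y => by
    rw [Subgroup.normalizer_eq_top_iff.2 ‹D.Normal›]
    exact mem_top y
  -- a `p'`-element of `C` is trivial
  have hp' : ∀ y ∈ C, ¬ p ∣ orderOf y → y = 1 := by
    intro y hy hpy
    have h1 : zpowers y ≤ centralizer (D : Set X) := by
      refine S0029.result (zpowers y) D (fun z _ => hDn z) ?_ ?_
      · rw [Nat.card_zpowers]
        obtain ⟨n, hn⟩ := (IsPGroup.iff_card (p := p)).1 (hD.to_subgroup (frattini D))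
        rw [hn]
        exact Nat.Coprime.pow_right n (Nat.Coprime.symm ((Nat.Prime.coprime_iff_not_dvd hp.out).2 hpy))
      · rintro z hz d hd
        exact (hmemC z).1 ((Subgroup.zpowers_le.2 hy) hz) d hd
    have h2 : y ∈ D := hC (h1 (mem_zpowers y))
    obtain ⟨n, hn⟩ := (IsPGroup.iff_orderOf.1 hD) ⟨y, h2⟩
    rw [Subgroup.orderOf_mk] at hn
    rcases Nat.eq_zero_or_pos n with h0 | h0
    · rw [h0, pow_zero] at hn
      exact orderOf_eq_one_iff.1 hn
    · exact absurd (hn ▸ dvd_pow_self p h0.ne') hpy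
  have hCp : IsPGroup p C := by
    intro y
    obtain ⟨k, m, hm, hkm⟩ := Nat.exists_eq_pow_mul_and_not_dvd (orderOf_pos (y : X)).ne' p
      hp.out.ne_one
    refine ⟨k, ?_⟩
    have h1 : orderOf ((y : X) ^ p ^ k) = m := by
      rw [orderOf_pow' _ (pow_ne_zero k hp.out.ne_zero), hkm,
        Nat.gcd_eq_right (Dvd.intro _ rfl), Nat.mul_div_cancel_left _ (pow_pos hp.out.pos k)]
    have h2 := hp' ((y : X) ^ p ^ k) (pow_mem y.2 _) (by rw [h1]; exact hm)
    exact Subtype.ext h2
  have hfr := S0012.result p hD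
  have hDC : D ≤ C := by
    intro d hd
    rw [hmemC]
    intro e he
    have h5 : (⁅(⟨d, hd⟩ : D), (⟨e, he⟩ : D)⁆ : D) ∈ frattini D :=
      hfr.1 (Subgroup.commutator_mem_commutator (Subgroup.mem_top _) (Subgroup.mem_top _))
    exact Subgroup.mem_map_of_mem D.subtype h5
  have h3 : D.relIndex C = 1 := by
    have h4 : D.relIndex C ∣ D.index := Subgroup.relIndex_dvd_index_of_le hDC
    obtain ⟨n, hn⟩ := (IsPGroup.iff_card (p := p)).1 hCp
    have h5 : D.relIndex C ∣ p ^ n := by
      rw [← hn]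
      exact Subgroup.relIndex_dvd_card D C
    obtain ⟨j, -, hj⟩ := (Nat.dvd_prime_pow hp.out).1 h5
    rcases Nat.eq_zero_or_pos j with h0 | h0
    · rw [hj, h0, pow_zero]
    · exact absurd ((hj ▸ dvd_pow_self p h0.ne' : p ∣ D.relIndex C).trans h4) hidx
  exact (Subgroup.relIndex_eq_one.1 h3) hx

/-- **The k(GV) theorem for groups with a normal Sylow subgroup.** -/
theorem class_le (h : MainKGV.{u}) {X : Type u} [Group X] [Finite X] {p : ℕ} [hp : Fact p.Prime]
    (D K : Subgroup X) [D.Normal] [K.Normal] (hD : IsPGroup p D) (hidx : ¬ p ∣ D.index)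
    (hC : centralizer (D : Set X) ≤ D) (hK : K ≤ (frattini D).map D.subtype) :
    Nat.card (ConjClasses (X ⧸ K)) ≤ K.relIndex D := by
  set F : Subgroup X := (frattini D).map D.subtype with hF
  have hFn : F.Normal := inferInstance
  have hFD : F ≤ D := Subgroup.map_subtype_le _
  have hfr := S0012.result p hD
  -- the Frattini quotient
  set V : Subgroup (X ⧸ F) := D.map (QuotientGroup.mk' F) with hV
  have hVn : V.Normal := Subgroup.Normal.map ‹_› _ (QuotientGroup.mk'_surjective F)
  have h1 : Nat.card (ConjClasses (X ⧸ F)) ≤ F.relIndex D := by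
    have hker : F.relIndex D = Nat.card V := by
      rw [hV, ← Subgroup.relIndex_ker, QuotientGroup.ker_mk']
    rw [hker]
    refine (h p (X ⧸ F) V ?_ ?_ ?_).1
    · rintro v ⟨d, hd, rfl⟩
      rw [← map_pow]
      refine (QuotientGroup.eq_one_iff _).2 ?_
      exact ⟨(⟨d, hd⟩ : D) ^ p, hfr.2 _, rfl⟩
    · rw [hV, Subgroup.index_map, QuotientGroup.ker_mk', sup_eq_left.2 hFD]
      have h2 : (QuotientGroup.mk' F).range = ⊤ :=
        MonoidHom.range_eq_top.2 (QuotientGroup.mk'_surjective F)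
      rw [h2, Subgroup.index_top, mul_one]
      exact hidx
    · apply le_antisymm
      · intro q hq
        obtain ⟨x, rfl⟩ := QuotientGroup.mk_surjective q
        refine ⟨x, mem_of_frattini D hD hidx hC fun d hd => ?_, rfl⟩
        have h3 := mem_centralizer_iff.1 hq (QuotientGroup.mk' F d) ⟨d, hd, rfl⟩
        rw [← hF]
        refine (QuotientGroup.eq_one_iff _).1 ?_
        have h4 : (QuotientGroup.mk (x * d * x⁻¹ * d⁻¹) : X ⧸ F) =
            (QuotientGroup.mk x) * (QuotientGroup.mk' F d) * (QuotientGroup.mk x)⁻¹ *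
              (QuotientGroup.mk' F d)⁻¹ := rfl
        rw [h4, ← h3]
        group
      · rintro v ⟨d, hd, rfl⟩
        rw [mem_centralizer_iff]
        rintro w ⟨e, he, rfl⟩
        rw [← map_mul, ← map_mul]
        refine QuotientGroup.eq.2 ?_
        have h5 : (⁅(⟨d, hd⟩ : D)⁻¹, (⟨e, he⟩ : D)⁻¹⁆ : D) ∈ frattini D :=
          hfr.1 (Subgroup.commutator_mem_commutator (Subgroup.mem_top _) (Subgroup.mem_top _))
        have h6 := Subgroup.mem_map_of_mem D.subtype h5
        have e7 : (e * d)⁻¹ * (d * e) = D.subtype ⁅(⟨d, hd⟩ : D)⁻¹, (⟨e, he⟩ : D)⁻¹⁆ := by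
          rw [map_commutatorElement, commutatorElement_def]
          simp [mul_assoc]
        rw [e7]
        exact h6
  -- the rest
  set N : Subgroup (X ⧸ K) := F.map (QuotientGroup.mk' K) with hN
  have hNn : N.Normal := Subgroup.Normal.map hFn _ (QuotientGroup.mk'_surjective K)
  have h2 := Cfsg.Agent.H540.ClassNum.le_normal_mul_quotient N
  have h3 : Nat.card (ConjClasses N) ≤ K.relIndex F := by
    have h4 : K.relIndex F = Nat.card N := by
      rw [hN, ← Subgroup.relIndex_ker, QuotientGroup.ker_mk']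
    rw [h4]
    exact conjClasses_le_card
  have h5 : Nat.card (ConjClasses ((X ⧸ K) ⧸ N)) = Nat.card (ConjClasses (X ⧸ F)) :=
    conjClasses_congr (QuotientGroup.quotientQuotientEquivQuotient K F hK)
  rw [h5] at h2
  refine h2.trans ((Nat.mul_le_mul h3 h1).trans ?_)
  rw [Subgroup.relIndex_mul_relIndex K F D hK hFD]

end Cfsg.Agent.H716.KGV
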